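import Mathlib
import Cfsg.Agent.BX.Max.Iface
import Cfsg.Agent.S0033
set_option linter.all false

/-!
# The affine cases by Thompson's theorem and linear algebra (helper29, for S5527)

* `exists_elem` : a nontrivial subgroup with a fixed-point-free element of prime order has a characteristic
  nontrivial elementary abelian subgroup;
* `aff_lin` : if moreover `h u h⁻¹ = u ^ e` with 15 distinct powers of `e`, the rank is at least 15;
* `aff47` : the case `p = 47`.
-/

set_option autoImplicit false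

namespace Cfsg.Agent.BX.Max

open Subgroup Polynomial

/-- the dimension bound -/
theorem AffLin.le_finrank_of_conj {F V : Type} [Field F] [AddCommGroup V] [Module F V] [FiniteDimensional F V] [Nontrivial V]
    (A : Module.End F V) (H : V ≃ₗ[F] V) {p e m : ℕ} (hp : p.Prime) (hA : A ^ p = 1)
    (hH : ∀ v, H (A v) = (A ^ e) (H v)) (hfix : ∀ v, A v = v → v = 0)
    (hk : ∀ i < m, ∀ j < m, e ^ i % p = e ^ j % p → i = j) : m ≤ Module.finrank F V := by
  classical
  have hint : IsIntegral F A := LinearMap.isIntegral A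
  set μ := minpoly F A with hμ
  have hμ0 : μ ≠ 0 := minpoly.ne_zero hint
  have hconj : (LinearEquiv.conjAlgEquiv F H) A = A ^ e := by
    ext v
    simp only [LinearEquiv.conjAlgEquiv_apply, LinearMap.coe_comp, LinearEquiv.coe_coe, Function.comp_apply]
    rw [hH, LinearEquiv.apply_symm_apply]
  have hae : aeval (A ^ e) μ = 0 := by
    rw [← hconj]
    have := Polynomial.aeval_algHom_apply (LinearEquiv.conjAlgEquiv F H).toAlgHom A μ
    rw [hμ, minpoly.aeval, map_zero] at this
    exact this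
  have hdvd : μ ∣ μ.comp (X ^ e) := by
    apply minpoly.dvd
    rw [aeval_comp]
    simpa using hae
  have hdp : μ ∣ X ^ p - 1 := by
    apply minpoly.dvd
    simp [hA]
  let K := AlgebraicClosure F
  have hstep : ∀ z : K, aeval z μ = 0 → aeval (z ^ e) μ = 0 := by
    intro z hz
    obtain ⟨q, hq⟩ := hdvd
    have h1 : aeval z (μ.comp (X ^ e)) = 0 := by rw [hq, map_mul, hz, zero_mul]
    rw [aeval_comp] at h1
    simpa using h1
  obtain ⟨z, hz⟩ : ∃ z : K, aeval z μ = 0 :=
    IsAlgClosed.exists_aeval_eq_zero K μ (minpoly.degree_pos hint).ne'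
  have hzp : z ^ p = 1 := by
    obtain ⟨q, hq⟩ := hdp
    have h1 : aeval z (X ^ p - 1 : F[X]) = 0 := by rw [hq, map_mul, hz, zero_mul]
    simpa [sub_eq_zero] using h1
  have hz1 : z ≠ 1 := by
    rintro rfl
    have h1 : μ.IsRoot 1 := by
      have h2 : aeval (algebraMap F K 1) μ = 0 := by simpa using hz
      rw [aeval_algebraMap_apply, map_eq_zero_iff _ (algebraMap F K).injective] at h2
      simpa using h2
    obtain ⟨v, hv⟩ := (Module.End.hasEigenvalue_of_isRoot h1).exists_hasEigenvector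
    exact hv.2 (hfix v (by simpa using hv.apply_eq_smul))
  haveI : Fact p.Prime := ⟨hp⟩
  have hord : orderOf z = p := orderOf_eq_prime hzp hz1
  have hroot : ∀ i : ℕ, aeval (z ^ e ^ i) μ = 0 := by
    intro i
    induction i with
    | zero => simpa using hz
    | succ i ih => rw [pow_succ, pow_mul]; exact hstep _ ih
  have hinj : Set.InjOn (fun i : ℕ => z ^ e ^ i) (Finset.range m : Set ℕ) := by
    intro i hi j hj hij
    simp only [Finset.coe_range, Set.mem_Iio] at hi hj
    refine hk i hi j hj ?_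
    have hfin : IsOfFinOrder z := isOfFinOrder_iff_pow_eq_one.2 ⟨p, hp.pos, hzp⟩
    have := (hfin.pow_eq_pow_iff_modEq).1 hij
    rwa [hord] at this
  have hcard : m ≤ (μ.map (algebraMap F K)).natDegree := by
    have h1 : ((Finset.range m).image fun i : ℕ => z ^ e ^ i).card = m := by
      rw [Finset.card_image_of_injOn hinj, Finset.card_range]
    rw [← h1]
    apply card_le_degree_of_subset_roots
    intro x hx
    simp only [Finset.mem_val, Finset.mem_image] at hx
    obtain ⟨i, -, rfl⟩ := hx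
    rw [mem_roots (Polynomial.map_ne_zero hμ0), IsRoot.def, eval_map_algebraMap]
    exact hroot i
  rw [natDegree_map] at hcard
  refine hcard.trans ?_
  rw [← LinearMap.charpoly_natDegree A]
  exact natDegree_le_of_dvd (LinearMap.minpoly_dvd_charpoly A) A.charpoly_monic.ne_zero

theorem AffLin.pow_dvd_card_aux {W : Type} [CommGroup W] [Finite W] [Nontrivial W] {r : ℕ} [Fact r.Prime]
    [Module (ZMod r) (Additive W)] (α β : MulAut W) {p e m : ℕ} (hp : p.Prime) (hα : α ^ p = 1)
    (he : β * α * β⁻¹ = α ^ e) (hfix : ∀ v, α v = v → v = 1)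
    (hk : ∀ i < m, ∀ j < m, e ^ i % p = e ^ j % p → i = j) : r ^ m ∣ Nat.card W := by
  let L : MulAut W → Module.End (ZMod r) (Additive W) := fun γ =>
    (MonoidHom.toAdditive (γ : W →* W)).toZModLinearMap r
  have hL : ∀ (γ : MulAut W) (v : Additive W), L γ v = Additive.ofMul (γ (Additive.toMul v)) := fun γ v => rfl
  have hLpow : ∀ (γ : MulAut W) (n : ℕ), (L γ) ^ n = L (γ ^ n) := by
    intro γ n
    induction n with
    | zero => ext v; rfl
    | succ n ih => rw [pow_succ, pow_succ, ih]; ext v; rfl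
  let H : Additive W ≃ₗ[ZMod r] Additive W :=
    LinearEquiv.ofLinear (L β) (L β⁻¹) (by ext v; simp [hL]) (by ext v; simp [hL])
  have hle : m ≤ Module.finrank (ZMod r) (Additive W) := by
    refine AffLin.le_finrank_of_conj (L α) H hp ?_ ?_ ?_ hk
    · rw [hLpow, hα]; ext v; rfl
    · intro v
      rw [hLpow, ← he]
      simp [H, hL]
    · intro v hv
      have := hfix (Additive.toMul v) (congrArg Additive.toMul hv)
      exact congrArg Additive.ofMul this
  have hc : Nat.card (Additive W) = Nat.card (ZMod r) ^ Module.finrank (ZMod r) (Additive W) :=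
    Module.natCard_eq_pow_finrank
  rw [Nat.card_zmod] at hc
  have : Nat.card W = Nat.card (Additive W) := rfl
  rw [this, hc]
  exact pow_dvd_pow r hle

/-- the order bound for an elementary abelian group -/
theorem AffLin.pow_dvd_card_of_conj {W : Type} [CommGroup W] [Finite W] [Nontrivial W] {r : ℕ} (hr : r.Prime)
    (hW : ∀ a : W, a ^ r = 1) (α β : MulAut W) {p e m : ℕ} (hp : p.Prime) (hα : α ^ p = 1)
    (he : β * α * β⁻¹ = α ^ e) (hfix : ∀ v, α v = v → v = 1)
    (hk : ∀ i < m, ∀ j < m, e ^ i % p = e ^ j % p → i = j) : r ^ m ∣ Nat.card W :=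
  haveI : Fact r.Prime := ⟨hr⟩
  @AffLin.pow_dvd_card_aux W _ _ _ r _ (AddCommGroup.zmodModule (n := r) (fun x => by
    change Additive.ofMul ((Additive.toMul x) ^ r) = 0
    rw [hW]; rfl)) α β p e m hp hα he hfix hk

variable {G : Type} [Group G] [Finite G]

open AffLin

omit [Finite G] in
theorem AffLin.fix_eq_one {N : Subgroup G} {u : G} (huN : u ∈ normalizer (N : Set G))
    (h1 : N ⊓ centralizer {u} = ⊥) (v : N) (hv : N.normalizerMonoidHom ⟨u, huN⟩ v = v) : v = 1 := by
  have h2 : u * (v : G) * u⁻¹ = v := congrArg Subtype.val hv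
  have h3 : (v : G) ∈ N ⊓ centralizer {u} := by
    refine ⟨v.2, ?_⟩
    rw [mul_inv_eq_iff_eq_mul] at h2
    exact mem_centralizer_singleton_iff.2 h2.symm
  rw [h1, mem_bot] at h3
  exact Subtype.ext h3

/-- **(3)** the characteristic elementary abelian subgroup -/
theorem exists_elem {N : Subgroup G} {u : G} {p : ℕ} (hp : p.Prime) (hu : orderOf u = p)
    (huN : u ∈ normalizer (N : Set G)) (h1 : N ⊓ centralizer {u} = ⊥) (hN : N ≠ ⊥) :
    ∃ r : ℕ, r.Prime ∧ ∃ V : Subgroup G, V ≠ ⊥ ∧ V ≤ N ∧ IsMulCommutative V ∧ (∀ a ∈ V, a ^ r = 1) ∧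
      normalizer (N : Set G) ≤ normalizer (V : Set G) := by
  haveI : Fact p.Prime := ⟨hp⟩
  haveI : Nontrivial N := (Subgroup.nontrivial_iff_ne_bot N).2 hN
  set φ : MulAut N := N.normalizerMonoidHom ⟨u, huN⟩ with hφ
  have hfix : ∀ v, φ v = v → v = 1 := fix_eq_one huN h1
  have hφp : φ ^ p = 1 := by
    rw [hφ, ← map_pow]
    have : (⟨u, huN⟩ : normalizer (N : Set G)) ^ p = 1 := by
      apply Subtype.ext
      simp [← hu]
    rw [this, map_one]
  have hφ1 : φ ≠ 1 := by
    intro h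
    obtain ⟨v, hv⟩ := exists_ne (1 : N)
    exact hv (hfix v (by rw [h]; rfl))
  haveI : Group.IsNilpotent N :=
    Cfsg.Agent.S0033.result (G := N) φ (fun g hg => hfix g hg) p hp (orderOf_eq_prime hφp hφ1)
  have hZ : center N ≠ ⊥ := Group.IsNilpotent.center_ne_bot N
  obtain ⟨z, hzZ, hz1⟩ : ∃ z : N, z ∈ center N ∧ z ≠ 1 := by
    by_contra hc
    push Not at hc
    exact hZ (eq_bot_iff.2 fun z hz => mem_bot.2 (hc z hz))
  have ho1 : orderOf z ≠ 1 := fun h => hz1 (orderOf_eq_one_iff.1 h)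
  have ho0 : orderOf z ≠ 0 := (orderOf_pos z).ne'
  refine ⟨(orderOf z).minFac, Nat.minFac_prime ho1, ?_⟩
  set r := (orderOf z).minFac with hr
  let V : Subgroup G :=
    { carrier := {a | a ∈ N ∧ (∀ n ∈ N, a * n = n * a) ∧ a ^ r = 1}
      one_mem' := ⟨N.one_mem, fun n _ => by simp, one_pow _⟩
      mul_mem' := by
        rintro a b ⟨ha, hca, hpa⟩ ⟨hb, hcb, hpb⟩
        refine ⟨N.mul_mem ha hb, fun n hn => ?_, ?_⟩
        · rw [mul_assoc, hcb n hn, ← mul_assoc, hca n hn, mul_assoc]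
        · rw [(show Commute a b from hca b hb).mul_pow, hpa, hpb, one_mul]
      inv_mem' := by
        rintro a ⟨ha, hca, hpa⟩
        refine ⟨N.inv_mem ha, fun n hn => (show Commute a n from hca n hn).inv_left.eq, ?_⟩
        rw [inv_pow, hpa, inv_one] }
  have hV : ∀ a, a ∈ V ↔ a ∈ N ∧ (∀ n ∈ N, a * n = n * a) ∧ a ^ r = 1 := fun a => Iff.rfl
  have hconj : ∀ g ∈ normalizer (N : Set G), ∀ a ∈ V, g * a * g⁻¹ ∈ V := by
    intro g hg a ha
    obtain ⟨ha, hca, hpa⟩ := (hV a).1 ha
    refine (hV _).2 ⟨(mem_normalizer_iff.1 hg a).1 ha, fun n hn => ?_, ?_⟩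
    · have hn' : g⁻¹ * n * g ∈ N := (mem_normalizer_iff''.1 hg n).1 hn
      have := hca _ hn'
      calc g * a * g⁻¹ * n = g * (a * (g⁻¹ * n * g)) * g⁻¹ := by group
        _ = g * ((g⁻¹ * n * g) * a) * g⁻¹ := by rw [this]
        _ = n * (g * a * g⁻¹) := by group
    · rw [conj_pow, hpa]; group
  refine ⟨V, ?_, fun a ha => ha.1, ⟨⟨fun a b => Subtype.ext (a.2.2.1 b b.2.1)⟩⟩, fun a ha => ha.2.2, ?_⟩
  · intro hb
    have hdv : r ∣ orderOf z := Nat.minFac_dvd _
    have hw : ((z ^ (orderOf z / r) : N) : G) ∈ V := by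
      refine (hV _).2 ⟨(z ^ (orderOf z / r)).2, fun n hn => ?_, ?_⟩
      · have := mem_center_iff.1 (pow_mem hzZ (orderOf z / r)) ⟨n, hn⟩
        exact (congrArg Subtype.val this).symm
      · rw [← Subgroup.coe_pow, ← pow_mul, Nat.div_mul_cancel hdv, pow_orderOf_eq_one]; rfl
    rw [hb, mem_bot] at hw
    have h2 : z ^ (orderOf z / r) = 1 := Subtype.ext hw
    have h3 := Nat.le_of_dvd (Nat.div_pos (Nat.le_of_dvd (Nat.pos_of_ne_zero ho0) hdv) (Nat.minFac_pos _))
      (orderOf_dvd_of_pow_eq_one h2)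
    exact absurd h3 (not_le.2 (Nat.div_lt_self (Nat.pos_of_ne_zero ho0) (Nat.minFac_prime ho1).one_lt))
  · intro g hg
    rw [mem_normalizer_iff]
    intro a
    refine ⟨hconj g hg a, fun h => ?_⟩
    have := hconj g⁻¹ (inv_mem hg) _ h
    simpa [mul_assoc] using this

theorem AffLin.nB_eq : nB = 2 ^ 41 * 3 ^ 13 * 5 ^ 6 * 7 ^ 2 * 11 * 13 * 17 * 19 * 23 * 31 * 47 := by
  unfold nB; norm_num

theorem AffLin.prime_dvd_nB {r : ℕ} (hr : r.Prime) (h : r ∣ nB) : r ∈ [2, 3, 5, 7, 11, 13, 17, 19, 23, 31, 47] := by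
  rw [nB_eq] at h
  have key : ∀ q : ℕ, q.Prime → r ∣ q → r = q := fun q hq h => (Nat.prime_dvd_prime_iff_eq hr hq).1 h
  simp only [hr.dvd_mul] at h
  simp only [List.mem_cons, List.not_mem_nil, or_false]
  rcases h with (((((((((h | h) | h) | h) | h) | h) | h) | h) | h) | h) | h
  · exact .inl (key 2 (by norm_num) (hr.dvd_of_dvd_pow h))
  · exact .inr (.inl (key 3 (by norm_num) (hr.dvd_of_dvd_pow h)))
  · exact .inr (.inr (.inl (key 5 (by norm_num) (hr.dvd_of_dvd_pow h))))
  · exact .inr (.inr (.inr (.inl (key 7 (by norm_num) (hr.dvd_of_dvd_pow h)))))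
  · exact .inr (.inr (.inr (.inr (.inl (key 11 (by norm_num) h)))))
  · exact .inr (.inr (.inr (.inr (.inr (.inl (key 13 (by norm_num) h))))))
  · exact .inr (.inr (.inr (.inr (.inr (.inr (.inl (key 17 (by norm_num) h)))))))
  · exact .inr (.inr (.inr (.inr (.inr (.inr (.inr (.inl (key 19 (by norm_num) h))))))))
  · exact .inr (.inr (.inr (.inr (.inr (.inr (.inr (.inr (.inl (key 23 (by norm_num) h)))))))))
  · exact .inr (.inr (.inr (.inr (.inr (.inr (.inr (.inr (.inr (.inl (key 31 (by norm_num) h))))))))))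
  · exact .inr (.inr (.inr (.inr (.inr (.inr (.inr (.inr (.inr (.inr (key 47 (by norm_num) h))))))))))

/-- **(4)** no affine overgroup when 15 powers of `e` are distinct -/
theorem aff_lin (hc : Nat.card G ∣ nB) (hr : PRankLE 2 14 G) {N : Subgroup G} {u h : G} {p e : ℕ} (hp : p.Prime)
    (hu : orderOf u = p) (he : h * u * h⁻¹ = u ^ e) (hk : ∀ i < 15, ∀ j < 15, e ^ i % p = e ^ j % p → i = j)
    (huN : u ∈ normalizer (N : Set G)) (hhN : h ∈ normalizer (N : Set G)) (h1 : N ⊓ centralizer {u} = ⊥) :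
    N = ⊥ := by
  by_contra hN
  obtain ⟨r, hr', V, hV0, hVN, hVc, hVr, hVn⟩ := exists_elem hp hu huN h1 hN
  have h1V : V ⊓ centralizer {u} = ⊥ := eq_bot_iff.2 (h1 ▸ inf_le_inf_right _ hVN)
  haveI : Nontrivial V := (Subgroup.nontrivial_iff_ne_bot V).2 hV0
  letI : CommGroup V := { (inferInstance : Group V) with mul_comm := hVc.is_comm.comm }
  have hd : r ^ 15 ∣ Nat.card V := by
    refine pow_dvd_card_of_conj (W := V) hr' (fun a => Subtype.ext (hVr a a.2))
      (V.normalizerMonoidHom ⟨u, hVn huN⟩) (V.normalizerMonoidHom ⟨h, hVn hhN⟩) hp ?_ ?_ (fix_eq_one _ h1V) hk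
    · rw [← map_pow]
      have : (⟨u, hVn huN⟩ : normalizer (V : Set G)) ^ p = 1 := by
        apply Subtype.ext
        simp [← hu]
      rw [this, map_one]
    · rw [← map_pow, ← map_inv, ← map_mul, ← map_mul]
      congr 1
      exact Subtype.ext he
  have hd2 : r ^ 15 ∣ nB := (hd.trans (card_subgroup_dvd_card V)).trans hc
  have hm := prime_dvd_nB hr' ((dvd_pow_self r (by norm_num)).trans hd2)
  simp only [List.mem_cons, List.not_mem_nil, or_false] at hm
  rcases hm with rfl | rfl | rfl | rfl | rfl | rfl | rfl | rfl | rfl | rfl | rfl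
  · have := hr V hVc hVr
    have h2 := Nat.le_of_dvd Nat.card_pos hd
    omega
  all_goals exact absurd hd2 (by unfold nB; norm_num)

/-- the order of a subgroup with a fixed-point-free element of prime order -/
theorem AffLin.card_mod_of_fpf {N : Subgroup G} {u : G} {p : ℕ} (hp : p.Prime) (hu : orderOf u = p)
    (huN : u ∈ normalizer (N : Set G)) (h1 : N ⊓ centralizer {u} = ⊥) : Nat.card N % p = 1 := by
  haveI : Fact p.Prime := ⟨hp⟩
  set φ : MulAut N := N.normalizerMonoidHom ⟨u, huN⟩ with hφ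
  have hfix : ∀ v, φ v = v → v = 1 := fix_eq_one huN h1
  have hφp : φ ^ p = 1 := by
    rw [hφ, ← map_pow]
    have : (⟨u, huN⟩ : normalizer (N : Set G)) ^ p = 1 := by
      apply Subtype.ext
      simp [← hu]
    rw [this, map_one]
  have hP : IsPGroup p (zpowers φ) := by
    rintro ⟨_, n, rfl⟩
    refine ⟨1, Subtype.ext ?_⟩
    simp only [pow_one, SubgroupClass.coe_pow, OneMemClass.coe_one]
    rw [← zpow_natCast, ← zpow_mul, mul_comm, zpow_mul, zpow_natCast, hφp, one_zpow]
  have h2 := hP.card_modEq_card_fixedPoints N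
  have h3 : Nat.card (MulAction.fixedPoints (zpowers φ) N) = 1 := by
    rw [Nat.card_eq_one_iff_unique]
    refine ⟨⟨fun a b => Subtype.ext ?_⟩, ⟨⟨1, fun g => ?_⟩⟩⟩
    · rw [hfix a (a.2 ⟨φ, mem_zpowers φ⟩), hfix b (b.2 ⟨φ, mem_zpowers φ⟩)]
    · exact map_one (g : MulAut N)
  rw [h3] at h2
  rw [h2, Nat.mod_eq_of_lt hp.one_lt]

/-- **(5)** an element of order 47 normalises no nontrivial subgroup without fixed points -/
theorem aff47 (hc : Nat.card G ∣ nB) (hr : PRankLE 2 14 G) {N : Subgroup G} {u : G} (hu : orderOf u = 47)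
    (huN : u ∈ normalizer (N : Set G)) (h1 : N ⊓ centralizer {u} = ⊥) : N = ⊥ := by
  by_contra hN
  have hp : Nat.Prime 47 := by norm_num
  obtain ⟨r, hr', V, hV0, hVN, hVc, hVr, hVn⟩ := exists_elem hp hu huN h1 hN
  have h1V : V ⊓ centralizer {u} = ⊥ := eq_bot_iff.2 (h1 ▸ inf_le_inf_right _ hVN)
  have hmod := card_mod_of_fpf hp hu (hVn huN) h1V
  haveI : Fact r.Prime := ⟨hr'⟩
  have hP : IsPGroup r V := fun a => ⟨1, Subtype.ext (by simpa using hVr a a.2)⟩
  obtain ⟨k, hk⟩ := IsPGroup.iff_card.1 hP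
  have hk0 : k ≠ 0 := by
    rintro rfl
    exact hV0 (Subgroup.card_eq_one.1 (by simpa using hk))
  have hd2 : r ^ k ∣ nB := (hk ▸ card_subgroup_dvd_card V).trans hc
  have hm := prime_dvd_nB hr' ((dvd_pow_self r hk0).trans hd2)
  have hle : k ≤ 14 := by
    by_contra hlt
    have hd3 : r ^ 15 ∣ r ^ k := pow_dvd_pow r (by omega)
    simp only [List.mem_cons, List.not_mem_nil, or_false] at hm
    rcases hm with rfl | rfl | rfl | rfl | rfl | rfl | rfl | rfl | rfl | rfl | rfl
    · have := hr V hVc hVr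
      have h2 := Nat.le_of_dvd (by positivity) hd3
      omega
    all_goals exact absurd (hd3.trans hd2) (by unfold nB; norm_num)
  rw [hk] at hmod
  have key : ∀ r ∈ [2, 3, 5, 7, 11, 13, 17, 19, 23, 31, 47], ∀ k ≤ 14, k ≠ 0 → r ^ k % 47 ≠ 1 := by decide
  exact key r hm k hle hk0 hmod

end Cfsg.Agent.BX.Max
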