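import Cfsg.Agent.BX.Max.Amb
import Cfsg.Agent.BX.Max.AffLin
import Cfsg.Agent.BX.Aff.Frob
set_option linter.all false

/-!
# The lemmas on fixed point free actions, collected (helper1, for S5527)
-/

set_option autoImplicit false

namespace Cfsg.Agent.BX.Max

open Subgroup

theorem frob_all {G : Type} [Group G] [Finite G] {N : Subgroup G} {u h : G} {p q e : ℕ} (hp : p.Prime) (hq : q.Prime)
    (hu : orderOf u = p) (hh : h ^ q = 1) (he : h * u * h⁻¹ = u ^ e) (hne : h * u ≠ u * h)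
    (huN : u ∈ normalizer (N : Set G)) (hhN : h ∈ normalizer (N : Set G)) (h1 : N ⊓ centralizer {u} = ⊥)
    (h2 : N ⊓ centralizer {h} = ⊥) : N = ⊥ := by
  by_contra hN
  have hup : u ^ p = 1 := hu ▸ pow_orderOf_eq_one u
  have hd : ¬ p ∣ Nat.card N := fun hd => by
    have h3 := AffLin.card_mod_of_fpf hp hu huN h1
    rw [Nat.mod_eq_zero_of_dvd hd] at h3
    exact zero_ne_one h3
  have hk : ∀ j, 0 < j → j < q → e ^ j % p ≠ 1 := by
    intro j j0 jq h3
    have h4 : h ^ j * u * (h ^ j)⁻¹ = u := by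
      rw [Aff.conj_pow_pow he j, pow_eq_pow_mod _ hup, h3, pow_one]
    have h5 : h ^ j ∈ centralizer ({u} : Set G) := mem_centralizer_singleton_iff.2 (mul_inv_eq_iff_eq_mul.1 h4)
    have h6 : h ∈ zpowers (h ^ j) := by
      refine mem_zpowers_pow_iff.2 ?_
      have h7 : j.Coprime q := (Nat.coprime_of_lt_prime j0.ne' jq hq).symm
      exact Nat.Coprime.coprime_dvd_right (orderOf_dvd_of_pow_eq_one hh) h7
    exact hne (mem_centralizer_singleton_iff.1 (zpowers_le.2 h5 h6))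
  obtain ⟨a, ha, ha1, ha2⟩ := Aff.exists_fix_of_fpf hp hq.pos hup hh he hk hN hd (Aff.Nm.of_mem huN) (Aff.Nm.of_mem hhN)
    (fun a ha hc => mem_bot.1 (h1 ▸ (⟨ha, mem_centralizer_singleton_iff.2 hc.symm⟩ : a ∈ N ⊓ centralizer {u})))
  exact ha1 (mem_bot.1 (h2 ▸ (⟨ha, mem_centralizer_singleton_iff.2 ha2.symm⟩ : a ∈ N ⊓ centralizer {h})))

theorem aff : Aff where
  frob _ _ _ _ _ _ _ _ _ hp hq hu hh he hne huN hhN h1 h2 := frob_all hp hq hu hh he hne huN hhN h1 h2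
  lin _ _ _ hc hr _ _ _ _ _ hp hu he hk huN hhN h1 := aff_lin hc hr hp hu he hk huN hhN h1
  a47 _ _ _ hc hr _ _ hu huN h1 := aff47 hc hr hu huN h1

end Cfsg.Agent.BX.Max
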