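import Cfsg.Agent.BX.Max.Four
import Cfsg.Agent.BX.Max.GlueLoc
import Cfsg.Agent.BX.Sieve.Glue
import Cfsg.Agent.BX.Frame.Glue3
import Cfsg.Agent.BX.Frame.Glue5
import Cfsg.Agent.BX.L31.Main
import Cfsg.Agent.BX.Five.PGLMain
import Cfsg.Agent.BX.Five.M11Main
import Cfsg.Agent.BX.P17b.Nt9
set_option linter.all false

/-!
# Four small maximal subgroups of the Baby Monster (helper7)

The first four conjuncts of S5527, in the words of that statement.
-/

set_option autoImplicit false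

namespace Cfsg.Agent.BX.Max.Final

theorem exs4 : Exs4 H819.U33.G where
  e31 := fun _ _ => L31.ex
  e11 := Five.PGL.ex Frame.Fr5.h5
  eM := Five.M11.ex Frame.Fr5.h5
  e17 := fun L h => P17b.ex L h Frame.Fr3.h3

/-- The Baby Monster has maximal subgroups isomorphic to `L₂(31)`, `PGL₂(11)`, `M₁₁` and `PGL₂(17)`. -/
theorem four_maximal :
    (∃ M : Subgroup Cfsg.Spor.BabyMonster, IsCoatom M ∧ Nonempty (↥M ≃* Matrix.ProjectiveSpecialLinearGroup (Fin 2) (ZMod 31))) ∧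
    (∃ M : Subgroup Cfsg.Spor.BabyMonster, IsCoatom M ∧ Nonempty (↥M ≃* GL (Fin 2) (ZMod 11) ⧸ Subgroup.center (GL (Fin 2) (ZMod 11)))) ∧
    (∃ M : Subgroup Cfsg.Spor.BabyMonster, IsCoatom M ∧ Nonempty (↥M ≃* ↥Cfsg.Spor.M11)) ∧
    (∃ M : Subgroup Cfsg.Spor.BabyMonster, IsCoatom M ∧ Nonempty (↥M ≃* GL (Fin 2) (ZMod 17) ⧸ Subgroup.center (GL (Fin 2) (ZMod 17)))) :=
  four GlueLoc.isoG Sieve.sieve GlueLoc.locB exs4

end Cfsg.Agent.BX.Max.Final
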