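import Cfsg.Agent.BX.Max.Ints
set_option linter.all false

/-!
# Four maximal subgroups from the deliverables (helper7)

The conjunct on `L₃(3)` of S5527 is left out: no subgroup `L₃(3)` of the Baby Monster is maximal
(see `departures/helper13.md`).  `B` is the group of the statement, `G` the model of the computations.
-/

set_option autoImplicit false

namespace Cfsg.Agent.BX.Max

/-- the four computations in the model -/
structure Exs4 (G : Type) [Group G] : Prop where
  e31 : Loc G → Gen47 G → Ex31 G
  e11 : Loc G → Gen47 G → Ex11 G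
  eM : Loc G → Gen47 G → ExM G
  e17 : Loc G → Gen47 G → Ex17 G

theorem four {B G : Type} [Group B] [Group G] (e : B ≃* G) (Sv : Sieve) (L : Loc B) (E : Exs4 G) :
    HasMax B T31 ∧ HasMax B T11 ∧ HasMax B TM ∧ HasMax B T17 := by
  have L' : Loc G := L.of_equiv e
  have Af := aff
  have F : Facts G := ⟨Sv, L'⟩
  have h := gen47 Af F
  exact ⟨(has31 Af F ints.i31 (E.e31 L' h)).map e.symm, (has11 Af F ints.i11 (E.e11 L' h)).map e.symm,
    (hasM Af F ints.iM (E.eM L' h)).map e.symm, (has17 Af F ints.i17 (E.e17 L' h)).map e.symm⟩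

end Cfsg.Agent.BX.Max
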