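import Cfsg.Agent.BX.Max.Main
import Cfsg.Agent.BX.Iso.Facts2
import Cfsg.Agent.BX.Iso.Todd
set_option linter.all false

/-!
# The facts on the small groups, collected (helper1, for S5527)
-/

set_option autoImplicit false

namespace Cfsg.Agent.BX.Max

theorem ints : Ints := ⟨Iso.i31, Iso.i11, Iso.Todd.iM, Iso.i17⟩

theorem five' {B G : Type} [Group B] [Group G] (e : B ≃* G) (Sv : Sieve) (L : Loc B) (E : Exs G) :
    HasMax B T31 ∧ HasMax B T11 ∧ HasMax B TM ∧ HasMax B T17 ∧ HasMax B T33 := five e Sv L ints E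

end Cfsg.Agent.BX.Max
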