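import Cfsg.Agent.BX.Max.Five
import Cfsg.Agent.BX.Max.LocMap
import Cfsg.Agent.BX.Max.AffAll
import Cfsg.Agent.BX.L33.Max33
set_option linter.all false

/-!
# The five maximal subgroups from the deliverables (helper1, for S5527)

`B` is the group of the statement, `G` the model in which the computations are done.
-/

set_option autoImplicit false

namespace Cfsg.Agent.BX.Max

/-- the facts on four of the small groups -/
structure Ints : Prop where
  i31 : I31 T31
  i11 : I11 T11
  iM : IM TM
  i17 : I17 T17

/-- the five computations in the model -/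
structure Exs (G : Type) [Group G] : Prop where
  e31 : Loc G → Gen47 G → Ex31 G
  e11 : Loc G → Gen47 G → Ex11 G
  eM : Loc G → Gen47 G → ExM G
  e17 : Loc G → Gen47 G → Ex17 G
  e33 : Loc G → Gen47 G → Ex33 G

theorem five {B G : Type} [Group B] [Group G] (e : B ≃* G) (Sv : Sieve) (L : Loc B) (I : Ints) (E : Exs G) :
    HasMax B T31 ∧ HasMax B T11 ∧ HasMax B TM ∧ HasMax B T17 ∧ HasMax B T33 := by
  have L' : Loc G := L.of_equiv e
  have Af := aff
  have F : Facts G := ⟨Sv, L'⟩
  have h := gen47 Af F
  exact ⟨(has31 Af F I.i31 (E.e31 L' h)).map e.symm, (has11 Af F I.i11 (E.e11 L' h)).map e.symm,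
    (hasM Af F I.iM (E.eM L' h)).map e.symm, (has17 Af F I.i17 (E.e17 L' h)).map e.symm,
    HasMax.map e.symm (L33.max33 F (E.e33 L' h))⟩

end Cfsg.Agent.BX.Max
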